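import Mathlib
import Cfsg.Agent.Lib.Helper13.Asch.Defs

set_option autoImplicit false

/-! # Clifford: a subalgebra normalised by an irreducible group acts semisimply -/

namespace Cfsg.Agent.Lib.Helper73.Asch

open Cfsg Cfsg.Geo Matrix Cfsg.Agent.Lib.Helper13.Asch
open scoped Kronecker MatrixGroups

variable {ι : Type} [Fintype ι] [DecidableEq ι] {F : Type*} [Field F]

theorem inv_iff {A : Set (Matrix ι ι F)} {W : Submodule F (ι → F)} :
    Inv A W ↔ ∀ a ∈ A, ∀ w ∈ W, a *ᵥ w ∈ W := by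
  constructor
  · intro h a ha w hw
    have := h a ha (Submodule.mem_map_of_mem hw)
    simpa using this
  · intro h a ha
    rintro _ ⟨w, hw, rfl⟩
    simpa using h a ha w hw

theorem inv_inf {A : Set (Matrix ι ι F)} {W W' : Submodule F (ι → F)} (h : Inv A W)
    (h' : Inv A W') : Inv A (W ⊓ W') := by
  rw [inv_iff] at *
  exact fun a ha w hw => ⟨h a ha w hw.1, h' a ha w hw.2⟩

theorem inv_sup {A : Set (Matrix ι ι F)} {W W' : Submodule F (ι → F)} (h : Inv A W)
    (h' : Inv A W') : Inv A (W ⊔ W') := by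
  intro a ha
  rw [Submodule.map_sup]
  exact sup_le_sup (h a ha) (h' a ha)

theorem inv_sSup {A : Set (Matrix ι ι F)} {S : Set (Submodule F (ι → F))}
    (h : ∀ W ∈ S, Inv A W) : Inv A (sSup S) := by
  intro a ha
  have hle : ∀ W ∈ S, W ≤ sSup S := fun W hW => le_sSup hW
  rw [sSup_eq_iSup, Submodule.map_iSup]
  refine iSup_le fun W => ?_
  rw [Submodule.map_iSup]
  refine iSup_le fun hW => ?_
  rw [← sSup_eq_iSup]
  exact (h W hW a ha).trans (hle W hW)

theorem inv_bot {A : Set (Matrix ι ι F)} : Inv A (⊥ : Submodule F (ι → F)) := by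
  intro a _; simp

theorem inv_top {A : Set (Matrix ι ι F)} : Inv A (⊤ : Submodule F (ι → F)) := by
  intro a _; simp

/-- conjugating by an element of the normaliser -/
theorem conj_mem {A : Subalgebra F (Matrix ι ι F)} {g : GL ι F} (hg : g ∈ subalgebraNormalizer A)
    {a : Matrix ι ι F} (ha : a ∈ A) :
    (g : Matrix ι ι F) * a * ((g⁻¹ : GL ι F) : Matrix ι ι F) ∈ A := (hg a).1 ha

theorem conj_mem' {A : Subalgebra F (Matrix ι ι F)} {g : GL ι F} (hg : g ∈ subalgebraNormalizer A)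
    {a : Matrix ι ι F} (ha : a ∈ A) :
    ((g⁻¹ : GL ι F) : Matrix ι ι F) * a * (g : Matrix ι ι F) ∈ A := by
  have := conj_mem ((subalgebraNormalizer A).inv_mem hg) ha
  simpa using this

theorem inv_map {A : Subalgebra F (Matrix ι ι F)} {g : GL ι F} (hg : g ∈ subalgebraNormalizer A)
    {W : Submodule F (ι → F)} (hW : Inv (A : Set (Matrix ι ι F)) W) :
    Inv (A : Set (Matrix ι ι F)) (W.map (Matrix.toLin' (g : Matrix ι ι F))) := by
  rw [inv_iff] at *
  rintro a ha _ ⟨w, hw, rfl⟩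
  refine ⟨(((g⁻¹ : GL ι F) : Matrix ι ι F) * a * (g : Matrix ι ι F)) *ᵥ w,
    hW _ (conj_mem' hg ha) w hw, ?_⟩
  simp only [Matrix.toLin'_apply, Matrix.mulVec_mulVec]
  congr 1
  rw [← mul_assoc, ← mul_assoc, ← Units.val_mul, mul_inv_cancel, Units.val_one, one_mul]

theorem map_map_inv (g : GL ι F) (W : Submodule F (ι → F)) :
    (W.map (Matrix.toLin' (g : Matrix ι ι F))).map
      (Matrix.toLin' ((g⁻¹ : GL ι F) : Matrix ι ι F)) = W := by
  rw [← Submodule.map_comp, ← Matrix.toLin'_mul, ← Units.val_mul, inv_mul_cancel, Units.val_one,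
    Matrix.toLin'_one, Submodule.map_id]

theorem map_inv_map (g : GL ι F) (W : Submodule F (ι → F)) :
    (W.map (Matrix.toLin' ((g⁻¹ : GL ι F) : Matrix ι ι F))).map
      (Matrix.toLin' (g : Matrix ι ι F)) = W := by
  rw [← Submodule.map_comp, ← Matrix.toLin'_mul, ← Units.val_mul, mul_inv_cancel, Units.val_one,
    Matrix.toLin'_one, Submodule.map_id]

/-- a minimal nonzero invariant subspace -/
def MinInv (A : Set (Matrix ι ι F)) (S : Submodule F (ι → F)) : Prop :=
  Inv A S ∧ S ≠ ⊥ ∧ ∀ T : Submodule F (ι → F), Inv A T → T ≤ S → T = ⊥ ∨ T = S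

theorem exists_minInv (A : Set (Matrix ι ι F)) {W : Submodule F (ι → F)} (hW : Inv A W)
    (hne : W ≠ ⊥) : ∃ S, MinInv A S ∧ S ≤ W := by
  have hwf : WellFounded ((· < ·) : Submodule F (ι → F) → Submodule F (ι → F) → Prop) :=
    wellFounded_lt
  obtain ⟨S, ⟨hS1, hS2, hS3⟩, hmin⟩ :=
    hwf.has_min {S | Inv A S ∧ S ≠ ⊥ ∧ S ≤ W} ⟨W, hW, hne, le_rfl⟩
  refine ⟨S, ⟨hS1, hS2, fun T hT hTS => ?_⟩, hS3⟩
  by_contra hcon
  push Not at hcon
  exact hmin T ⟨hT, hcon.1, hTS.trans hS3⟩ (lt_of_le_of_ne hTS hcon.2)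

theorem minInv_map {A : Subalgebra F (Matrix ι ι F)} {g : GL ι F}
    (hg : g ∈ subalgebraNormalizer A) {S : Submodule F (ι → F)}
    (hS : MinInv (A : Set (Matrix ι ι F)) S) :
    MinInv (A : Set (Matrix ι ι F)) (S.map (Matrix.toLin' (g : Matrix ι ι F))) := by
  obtain ⟨h1, h2, h3⟩ := hS
  refine ⟨inv_map hg h1, ?_, fun T hT hTS => ?_⟩
  · intro h
    apply h2
    rw [← map_map_inv g S, h, Submodule.map_bot]
  · have hT' := inv_map ((subalgebraNormalizer A).inv_mem hg) hT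
    have hle : T.map (Matrix.toLin' ((g⁻¹ : GL ι F) : Matrix ι ι F)) ≤ S := by
      rw [← map_map_inv g S]
      exact Submodule.map_mono hTS
    rcases h3 _ hT' hle with h | h
    · left
      rw [← map_inv_map g T, h, Submodule.map_bot]
    · right
      rw [← map_inv_map g T, h]

/-- a sum of minimal invariant subspaces is semisimple -/
theorem exists_compl_of_sSup {A : Set (Matrix ι ι F)}
    (htop : sSup {S : Submodule F (ι → F) | MinInv A S} = ⊤)
    (W : Submodule F (ι → F)) (hW : Inv A W) :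
    ∃ W' : Submodule F (ι → F), Inv A W' ∧ IsCompl W W' := by
  have hwf : WellFounded ((· > ·) : Submodule F (ι → F) → Submodule F (ι → F) → Prop) :=
    wellFounded_gt
  obtain ⟨W', ⟨hW1, hW2⟩, hmax⟩ :=
    hwf.has_min {W' | Inv A W' ∧ Disjoint W W'} ⟨⊥, inv_bot, disjoint_bot_right⟩
  refine ⟨W', hW1, hW2, ?_⟩
  rw [codisjoint_iff, eq_top_iff, ← htop]
  refine sSup_le fun S hS => ?_
  obtain ⟨h1, h2, h3⟩ := hS
  rcases h3 (S ⊓ (W ⊔ W')) (inv_inf h1 (inv_sup hW hW1)) inf_le_left with h | h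
  · exfalso
    have hd : Disjoint (W ⊔ W') S := by rw [disjoint_iff, inf_comm]; exact h
    have hd2 : Disjoint W (W' ⊔ S) := hW2.disjoint_sup_right_of_disjoint_sup_left hd
    have hlt : W' < W' ⊔ S := by
      refine lt_of_le_of_ne le_sup_left fun heq => ?_
      have hSW : S ≤ W' := by rw [heq]; exact le_sup_right
      exact h2 (hd.symm.eq_bot_of_le (hSW.trans le_sup_right))
    exact hmax (W' ⊔ S) ⟨inv_sup hW1 h1, hd2⟩ hlt
  · exact inf_eq_left.1 h

/-- L1 -/
theorem ss_of_irr (H : Subgroup (GL ι F)) (hirr : ActsIrreducibly (matrixSet H))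
    (A : Subalgebra F (Matrix ι ι F)) (hA : H ≤ subalgebraNormalizer A) : SS A := by
  intro W hW
  by_cases htriv : (⊤ : Submodule F (ι → F)) = ⊥
  · refine ⟨⊤, inv_top, ?_, codisjoint_top_right⟩
    rw [htriv]; exact disjoint_bot_right
  refine exists_compl_of_sSup ?_ W hW
  obtain ⟨S0, hS0, -⟩ := exists_minInv (A : Set (Matrix ι ι F)) inv_top htriv
  have hinv : ∀ s ∈ matrixSet H,
      (sSup {S : Submodule F (ι → F) | MinInv (A : Set (Matrix ι ι F)) S}).map (Matrix.toLin' s) ≤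
        sSup {S : Submodule F (ι → F) | MinInv (A : Set (Matrix ι ι F)) S} := by
    rintro _ ⟨g, hg, rfl⟩
    rw [sSup_eq_iSup, Submodule.map_iSup]
    refine iSup_le fun S => ?_
    rw [Submodule.map_iSup]
    refine iSup_le fun hS => ?_
    rw [← sSup_eq_iSup]
    exact le_sSup (minInv_map (hA hg) hS)
  rcases hirr _ hinv with h | h
  · exfalso
    exact hS0.2.1 (le_bot_iff.1 (h ▸ le_sSup hS0))
  · exact h

end Cfsg.Agent.Lib.Helper73.Asch
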