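import Mathlib
import Cfsg.Agent.Lib.Helper73.Asch.L2a

set_option autoImplicit false

/-! # A commutative subalgebra normalised by an irreducible group: imprimitive or a field -/

namespace Cfsg.Agent.Lib.Helper73.Asch

open Cfsg Cfsg.Geo Matrix Cfsg.Agent.Lib.Helper13.Asch
open scoped Kronecker MatrixGroups

variable {ι : Type} [Fintype ι] [DecidableEq ι] {F : Type*} [Field F]

theorem aeval_mem {Z : Subalgebra F (Matrix ι ι F)} {x : Matrix ι ι F} (hx : x ∈ Z)
    (p : Polynomial F) : Polynomial.aeval x p ∈ Z :=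
  Algebra.adjoin_le (by simpa using hx) (Polynomial.aeval_mem_adjoin_singleton F x)

theorem exists_pow_eq {Z : Subalgebra F (Matrix ι ι F)} {x : Matrix ι ι F} (hx : x ∈ Z) :
    ∃ u ∈ Z, ∃ k : ℕ, x ^ k = x ^ (k + 1) * u := by
  have hp : x.charpoly ≠ 0 := (Matrix.charpoly_monic x).ne_zero
  obtain ⟨q, hq, hnd⟩ := Polynomial.exists_eq_pow_rootMultiplicity_mul_and_not_dvd x.charpoly hp 0
  set k := Polynomial.rootMultiplicity 0 x.charpoly
  have hc : q.coeff 0 ≠ 0 := by
    intro h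
    apply hnd
    rw [Polynomial.C_0, sub_zero]
    exact Polynomial.X_dvd_iff.2 h
  have h0 : Polynomial.aeval x x.charpoly = 0 := Matrix.aeval_self_charpoly x
  rw [hq, ← Polynomial.divX_mul_X_add q] at h0
  simp only [Polynomial.C_0, sub_zero, map_mul, map_pow, Polynomial.aeval_X, map_add,
    Polynomial.aeval_C] at h0
  set y := Polynomial.aeval x q.divX with hy
  have hcm : Commute x y := by
    have : Commute (Polynomial.aeval x (Polynomial.X : Polynomial F)) (Polynomial.aeval x q.divX) := by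
      rw [Commute, SemiconjBy, ← map_mul, ← map_mul, mul_comm]
    simpa using this
  refine ⟨-(q.coeff 0)⁻¹ • y, Z.smul_mem (aeval_mem hx _) _, k, ?_⟩
  rw [Algebra.algebraMap_eq_smul_one, mul_add, mul_smul_comm, mul_one] at h0
  have h1 : q.coeff 0 • x ^ k = -(x ^ k * (y * x)) := eq_neg_of_add_eq_zero_right h0
  have h2 : x ^ k = (q.coeff 0)⁻¹ • (q.coeff 0 • x ^ k) := by
    rw [smul_smul, inv_mul_cancel₀ hc, one_smul]
  rw [h2, h1, pow_succ, mul_smul_comm, neg_smul, smul_neg, mul_assoc, hcm.eq]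

theorem eq_zero_of_pow {Z : Subalgebra F (Matrix ι ι F)} (hss : SS Z)
    (hcomm : ∀ x ∈ Z, ∀ y ∈ Z, x * y = y * x) {d : Matrix ι ι F} (hd : d ∈ Z) {k : ℕ}
    (hk : d ^ k = 0) : d = 0 := by
  have hker : Inv (Z : Set (Matrix ι ι F)) (LinearMap.ker (Matrix.toLin' d)) := by
    rw [inv_iff]
    intro a ha w hw
    simp only [LinearMap.mem_ker, Matrix.toLin'_apply] at *
    rw [Matrix.mulVec_mulVec, hcomm d hd a ha, ← Matrix.mulVec_mulVec, hw, Matrix.mulVec_zero]
  obtain ⟨W', hW', hc⟩ := hss _ hker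
  have key : ∀ j : ℕ, ∀ w ∈ W', (d ^ j) *ᵥ w = 0 → w = 0 := by
    intro j
    induction j with
    | zero => intro w _ h; simpa using h
    | succ j ih =>
      intro w hw h
      apply ih w hw
      have h1 : (d ^ j) *ᵥ w ∈ W' := (inv_iff.1 hW') _ (Z.pow_mem hd j) w hw
      have h2 : (d ^ j) *ᵥ w ∈ LinearMap.ker (Matrix.toLin' d) := by
        simp only [LinearMap.mem_ker, Matrix.toLin'_apply]
        rw [Matrix.mulVec_mulVec, ← pow_succ']
        exact h
      exact (Submodule.mem_bot F).1 (hc.disjoint.le_bot ⟨h2, h1⟩)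
  have hW'bot : W' = ⊥ := by
    rw [eq_bot_iff]
    intro w hw
    exact (Submodule.mem_bot F).2 (key k w hw (by rw [hk, Matrix.zero_mulVec]))
  have hkt : LinearMap.ker (Matrix.toLin' d) = ⊤ := by
    have := hc.sup_eq_top
    rwa [hW'bot, sup_bot_eq] at this
  have h0 : Matrix.toLin' d = 0 := LinearMap.ker_eq_top.1 hkt
  exact (LinearEquiv.map_eq_zero_iff _).1 h0

theorem exists_quasi_inv {Z : Subalgebra F (Matrix ι ι F)} (hss : SS Z)
    (hcomm : ∀ x ∈ Z, ∀ y ∈ Z, x * y = y * x) {x : Matrix ι ι F} (hx : x ∈ Z) :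
    ∃ u ∈ Z, x * x * u = x := by
  obtain ⟨u, hu, k, hk⟩ := exists_pow_eq hx
  refine ⟨u, hu, ?_⟩
  have hd : x * (1 - x * u) ∈ Z := Z.mul_mem hx (Z.sub_mem Z.one_mem (Z.mul_mem hx hu))
  have hcm : Commute x (1 - x * u) :=
    hcomm x hx _ (Z.sub_mem Z.one_mem (Z.mul_mem hx hu))
  have h0 : x ^ k * (1 - x * u) = 0 := by
    rw [mul_sub, mul_one, ← mul_assoc, ← pow_succ, ← hk, sub_self]
  have hpow : (x * (1 - x * u)) ^ (k + 1) = 0 := by
    rw [hcm.mul_pow, pow_succ' x, pow_succ' (1 - x * u), mul_assoc, ← mul_assoc (x ^ k), h0,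
      zero_mul, mul_zero]
  have := eq_zero_of_pow hss hcomm hd hpow
  rw [mul_sub, mul_one, ← mul_assoc, sub_eq_zero] at this
  exact this.symm

/-- a primitive idempotent of `Z` -/
def AtomIdem (Z : Subalgebra F (Matrix ι ι F)) (e : Matrix ι ι F) : Prop :=
  e ∈ Z ∧ e * e = e ∧ e ≠ 0 ∧ ∀ f ∈ Z, f * f = f → e * f = 0 ∨ e * f = e

theorem exists_atom_le {Z : Subalgebra F (Matrix ι ι F)}
    (hcomm : ∀ x ∈ Z, ∀ y ∈ Z, x * y = y * x) {g : Matrix ι ι F} (hg : g ∈ Z)
    (hgg : g * g = g) (hg0 : g ≠ 0) : ∃ e, AtomIdem Z e ∧ e * g = e := by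
  have hwf : WellFounded ((· < ·) : Submodule F (ι → F) → Submodule F (ι → F) → Prop) :=
    wellFounded_lt
  obtain ⟨R, ⟨e, he, hee, he0, heg, rfl⟩, hmin⟩ :=
    hwf.has_min {R | ∃ e ∈ Z, e * e = e ∧ e ≠ 0 ∧ e * g = e ∧
      R = LinearMap.range (Matrix.toLin' e)} ⟨_, g, hg, hgg, hg0, hgg, rfl⟩
  refine ⟨e, ⟨he, hee, he0, fun f hf hff => ?_⟩, heg⟩
  by_contra hcon
  push Not at hcon
  obtain ⟨h1, h2⟩ := hcon
  have hef : (e * f) * (e * f) = e * f := by
    rw [mul_assoc, ← mul_assoc f e f, hcomm f hf e he, mul_assoc e f f, hff, ← mul_assoc, hee]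
  have hefg : e * f * g = e * f := by
    rw [mul_assoc, hcomm f hf g hg, ← mul_assoc, heg]
  have hle : LinearMap.range (Matrix.toLin' (e * f)) ≤ LinearMap.range (Matrix.toLin' e) := by
    rw [Matrix.toLin'_mul]
    exact LinearMap.range_comp_le_range _ _
  have hnlt := hmin _ ⟨e * f, Z.mul_mem he hf, hef, h1, hefg, rfl⟩
  have heq : LinearMap.range (Matrix.toLin' (e * f)) = LinearMap.range (Matrix.toLin' e) := by
    by_contra hne
    exact hnlt (lt_of_le_of_ne hle hne)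
  apply h2
  have h3 : ∀ v, (e * f * e) *ᵥ v = e *ᵥ v := by
    intro v
    have hv : Matrix.toLin' e v ∈ LinearMap.range (Matrix.toLin' (e * f)) :=
      heq ▸ LinearMap.mem_range_self _ v
    obtain ⟨w, hw⟩ := hv
    simp only [Matrix.toLin'_apply] at hw
    rw [← Matrix.mulVec_mulVec, ← hw, Matrix.mulVec_mulVec, hef]
  have h4 : e * f * e = e :=
    Matrix.toLin'.injective (LinearMap.ext fun v => by
      rw [Matrix.toLin'_apply, Matrix.toLin'_apply]; exact h3 v)
  rw [mul_assoc, hcomm f hf e he, ← mul_assoc, hee] at h4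
  exact h4

theorem atom_mul_eq_zero {Z : Subalgebra F (Matrix ι ι F)}
    (hcomm : ∀ x ∈ Z, ∀ y ∈ Z, x * y = y * x) {e e' : Matrix ι ι F} (he : AtomIdem Z e)
    (he' : AtomIdem Z e') (hne : e ≠ e') : e * e' = 0 := by
  rcases he.2.2.2 e' he'.1 he'.2.1 with h | h
  · exact h
  · exfalso
    rcases he'.2.2.2 e he.1 he.2.1 with h' | h'
    · rw [hcomm e' he'.1 e he.1, h] at h'
      exact he.2.2.1 h'
    · rw [hcomm e' he'.1 e he.1, h] at h'
      exact hne h'

theorem range_ne_bot {e : Matrix ι ι F} (he : e ≠ 0) :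
    LinearMap.range (Matrix.toLin' e) ≠ ⊥ := by
  intro h
  rw [LinearMap.range_eq_bot] at h
  exact he ((LinearEquiv.map_eq_zero_iff _).1 h)

theorem atom_conj {Z : Subalgebra F (Matrix ι ι F)} {h : GL ι F}
    (hh : h ∈ subalgebraNormalizer Z) {e : Matrix ι ι F} (he : AtomIdem Z e) :
    AtomIdem Z ((h : Matrix ι ι F) * e * ((h⁻¹ : GL ι F) : Matrix ι ι F)) := by
  have hi : ((h⁻¹ : GL ι F) : Matrix ι ι F) * (h : Matrix ι ι F) = 1 := by
    rw [← Units.val_mul, inv_mul_cancel, Units.val_one]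
  have hi' : (h : Matrix ι ι F) * ((h⁻¹ : GL ι F) : Matrix ι ι F) = 1 := by
    rw [← Units.val_mul, mul_inv_cancel, Units.val_one]
  set a := (h : Matrix ι ι F)
  set b := ((h⁻¹ : GL ι F) : Matrix ι ι F)
  refine ⟨conj_mem hh he.1, ?_, ?_, fun f hf hff => ?_⟩
  · calc a * e * b * (a * e * b) = a * e * (b * a) * e * b := by noncomm_ring
      _ = a * (e * e) * b := by rw [hi]; noncomm_ring
      _ = a * e * b := by rw [he.2.1]
  · intro h0
    apply he.2.2.1
    calc e = (b * a) * e * (b * a) := by rw [hi]; simp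
      _ = b * (a * e * b) * a := by noncomm_ring
      _ = 0 := by rw [h0]; simp
  · have hf' : b * f * a ∈ Z := conj_mem' hh hf
    have hff' : b * f * a * (b * f * a) = b * f * a := by
      calc b * f * a * (b * f * a) = b * f * (a * b) * f * a := by noncomm_ring
        _ = b * (f * f) * a := by rw [hi']; noncomm_ring
        _ = b * f * a := by rw [hff]
    have key : a * e * b * f = a * (e * (b * f * a)) * b := by
      calc a * e * b * f = a * e * b * f * (a * b) := by rw [hi']; simp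
        _ = a * (e * (b * f * a)) * b := by noncomm_ring
    rcases he.2.2.2 _ hf' hff' with h1 | h1
    · left; rw [key, h1]; simp
    · right; rw [key, h1]

theorem map_range_conj (h : GL ι F) (e : Matrix ι ι F) :
    (LinearMap.range (Matrix.toLin' e)).map (Matrix.toLin' (h : Matrix ι ι F)) =
      LinearMap.range (Matrix.toLin' ((h : Matrix ι ι F) * e * ((h⁻¹ : GL ι F) : Matrix ι ι F))) := by
  have hi : ((h⁻¹ : GL ι F) : Matrix ι ι F) * (h : Matrix ι ι F) = 1 := by
    rw [← Units.val_mul, inv_mul_cancel, Units.val_one]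
  ext v
  constructor
  · rintro ⟨_, ⟨w, rfl⟩, rfl⟩
    refine ⟨(h : Matrix ι ι F) *ᵥ w, ?_⟩
    simp only [Matrix.toLin'_apply, Matrix.mulVec_mulVec]
    rw [mul_assoc _ _ (h : Matrix ι ι F), hi, mul_one]
  · rintro ⟨w, rfl⟩
    refine ⟨_, ⟨((h⁻¹ : GL ι F) : Matrix ι ι F) *ᵥ w, rfl⟩, ?_⟩
    simp only [Matrix.toLin'_apply, Matrix.mulVec_mulVec, mul_assoc]

/-- L2b -/
theorem comm_dichotomy (H : Subgroup (GL ι F)) (hirr : ActsIrreducibly (matrixSet H))
    (Z : Subalgebra F (Matrix ι ι F)) (hZ : H ≤ subalgebraNormalizer Z)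
    (hcomm : ∀ x ∈ Z, ∀ y ∈ Z, x * y = y * x) :
    (∃ (t m : ℕ) (D : Fin t → Submodule F (ι → F)), IsMDecomposition m D ∧
      H ≤ decompositionStabilizer D) ∨
    (∀ x ∈ Z, x ≠ 0 → ∃ y ∈ Z, x * y = 1) := by
  have hss : SS Z := ss_of_irr H hirr Z hZ
  set 𝒟 : Set (Submodule F (ι → F)) :=
    {W | ∃ e, AtomIdem Z e ∧ W = LinearMap.range (Matrix.toLin' e)} with h𝒟
  by_cases h2 : ∃ W ∈ 𝒟, ∃ W' ∈ 𝒟, W ≠ W'
  · left
    refine imprimitive_of_set H hirr 𝒟 ?_ ?_ h2 ?_
    · rintro _ ⟨e, he, rfl⟩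
      exact range_ne_bot he.2.2.1
    · rintro _ ⟨e, he, rfl⟩
      have hle : sSup (𝒟 \ {LinearMap.range (Matrix.toLin' e)}) ≤
          LinearMap.ker (Matrix.toLin' e) := by
        refine sSup_le ?_
        rintro _ ⟨⟨e', he', rfl⟩, hne⟩
        have hee' : e ≠ e' := by
          rintro rfl
          exact hne rfl
        have h0 := atom_mul_eq_zero hcomm he he' hee'
        rintro _ ⟨w, rfl⟩
        simp only [LinearMap.mem_ker, Matrix.toLin'_apply, Matrix.mulVec_mulVec, h0,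
          Matrix.zero_mulVec]
      refine Disjoint.mono_right hle ?_
      rw [Submodule.disjoint_def]
      rintro _ ⟨w, rfl⟩ hw
      simp only [LinearMap.mem_ker, Matrix.toLin'_apply, Matrix.mulVec_mulVec, he.2.1] at hw
      simpa using hw
    · rintro h hh _ ⟨e, he, rfl⟩
      exact ⟨_, atom_conj (hZ hh) he, map_range_conj h e⟩
  · right
    push Not at h2
    intro x hx hx0
    obtain ⟨u, hu, hxu⟩ := exists_quasi_inv hss hcomm hx
    refine ⟨u, hu, ?_⟩
    by_contra hne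
    have hxuZ : x * u ∈ Z := Z.mul_mem hx hu
    have hid : x * u * (x * u) = x * u := by
      rw [mul_assoc, ← mul_assoc u x u, hcomm u hu x hx, ← mul_assoc, ← mul_assoc, hxu]
    have hne0 : x * u ≠ 0 := by
      intro h0
      apply hx0
      rw [← hxu, mul_assoc, h0, mul_zero]
    have hcZ : 1 - x * u ∈ Z := Z.sub_mem Z.one_mem hxuZ
    have hcid : (1 - x * u) * (1 - x * u) = 1 - x * u := by
      rw [mul_sub, sub_mul, sub_mul, hid]
      simp
    have hc0 : 1 - x * u ≠ 0 := fun h0 => hne (sub_eq_zero.1 h0).symm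
    obtain ⟨e, he, heg⟩ := exists_atom_le hcomm hxuZ hid hne0
    obtain ⟨e', he', heg'⟩ := exists_atom_le hcomm hcZ hcid hc0
    have hr := h2 _ ⟨e, he, rfl⟩ _ ⟨e', he', rfl⟩
    have hee' : e = e' := by
      by_contra hne'
      have h0 := atom_mul_eq_zero hcomm he he' hne'
      -- e' v ∈ range e' = range e so e (e' v) = e' v
      apply he'.2.2.1
      refine Matrix.toLin'.injective (LinearMap.ext fun v => ?_)
      have hv : Matrix.toLin' e' v ∈ LinearMap.range (Matrix.toLin' e) :=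
        hr ▸ LinearMap.mem_range_self _ v
      obtain ⟨w, hw⟩ := hv
      have h5 : e *ᵥ (e' *ᵥ v) = e' *ᵥ v := by
        simp only [Matrix.toLin'_apply] at hw
        rw [← hw, Matrix.mulVec_mulVec, he.2.1]
      rw [Matrix.mulVec_mulVec, h0, Matrix.zero_mulVec] at h5
      simp [← h5]
    subst hee'
    apply he.2.2.1
    rw [mul_sub, mul_one, heg, sub_self] at heg'
    exact heg'.symm

end Cfsg.Agent.Lib.Helper73.Asch
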