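import Mathlib
import Cfsg.Agent.Lib.Helper13.Asch.Defs

set_option autoImplicit false

/-! # `SL` is not contained in a tensor product subgroup -/

namespace Cfsg.Agent.Lib.Helper73.Asch

open Cfsg Cfsg.Geo Matrix Cfsg.Agent.Lib.Helper13.Asch
open scoped Kronecker MatrixGroups

variable {ι : Type} [Fintype ι] [DecidableEq ι] {F : Type*} [Field F]

theorem mem_specialLinear_iff (g : GL ι F) :
    g ∈ specialLinear ι F ↔ (g : Matrix ι ι F).det = 1 := by
  unfold specialLinear
  rw [MonoidHom.mem_ker, Units.ext_iff]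
  simp

theorem exists_gl_of_det_one (T : Matrix ι ι F) (h : T.det = 1) :
    ∃ g : GL ι F, (g : Matrix ι ι F) = T ∧ g ∈ specialLinear ι F := by
  refine ⟨Matrix.GeneralLinearGroup.mkOfDetNeZero T (by rw [h]; exact one_ne_zero), rfl, ?_⟩
  rw [mem_specialLinear_iff]
  exact h

theorem coe_glReindex {κ : Type} [Fintype κ] [DecidableEq κ] (e : κ ≃ ι) (g : GL κ F) :
    ((glReindex e g : GL ι F) : Matrix ι ι F) = Matrix.reindex e e (g : Matrix κ κ F) := rfl

/-- reduction to the standard copy -/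
theorem sl_le_of_le_conj_reindex {κ : Type} [Fintype κ] [DecidableEq κ] (e : ι ≃ κ) (P : GL ι F)
    (K : Subgroup (GL κ F))
    (h : specialLinear ι F ≤
      (K.map (glReindex e.symm).toMonoidHom).map (MulAut.conj P).toMonoidHom) :
    specialLinear κ F ≤ K := by
  intro g hg
  have hdet : P * glReindex e.symm g * P⁻¹ ∈ specialLinear ι F := by
    rw [mem_specialLinear_iff] at hg ⊢
    rw [Units.val_mul, Units.val_mul, Matrix.det_mul, Matrix.det_mul, coe_glReindex,
      Matrix.det_reindex_self, hg, mul_one, ← Matrix.det_mul, ← Units.val_mul, mul_inv_cancel,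
      Units.val_one, Matrix.det_one]
  obtain ⟨_, ⟨k, hk, rfl⟩, hk2⟩ := h hdet
  have h3 : glReindex e.symm k = glReindex e.symm g := by
    have : P * glReindex e.symm k * P⁻¹ = P * glReindex e.symm g * P⁻¹ := hk2
    simpa using this
  have := (glReindex (F := F) e.symm).injective h3
  rwa [← this]

/-- D1d -/
theorem sl_not_le_tensor {a b : ℕ} (ha : 2 ≤ a) (hb : 2 ≤ b) (e : ι ≃ Fin a × Fin b) (P : GL ι F) :
    ¬ specialLinear ι F ≤ tensorProductSubgroup a b e P := by
  intro h
  have h1 := sl_le_of_le_conj_reindex e P _ h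
  obtain ⟨a, rfl⟩ : ∃ a', a = a' + 2 := ⟨a - 2, by omega⟩
  obtain ⟨b, rfl⟩ : ∃ b', b = b' + 2 := ⟨b - 2, by omega⟩
  have hne : ((0 : Fin (a + 2)), (0 : Fin (b + 2))) ≠ (1, 1) := by
    intro h; simpa using congrArg Prod.fst h
  obtain ⟨g, hg, hgS⟩ := exists_gl_of_det_one
    (Matrix.transvection ((0 : Fin (a + 2)), (0 : Fin (b + 2))) (1, 1) (1 : F))
    (Matrix.det_transvection_of_ne _ _ hne 1)
  obtain ⟨A, B, hAB⟩ := h1 hgS
  rw [hg] at hAB
  have e1 := congrFun (congrFun hAB (0, 0)) (0, 0)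
  have e2 := congrFun (congrFun hAB (0, 0)) (1, 1)
  have e3 := congrFun (congrFun hAB (0, 0)) (0, 1)
  simp [Matrix.transvection, Matrix.kroneckerMap_apply, Matrix.single_apply, Matrix.one_apply]
    at e1 e2 e3
  rcases e3 with e3 | e3
  · rw [e3] at e1; simp at e1
  · rw [e3] at e2; simp at e2

end Cfsg.Agent.Lib.Helper73.Asch
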