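import Mathlib
import Cfsg.Agent.Lib.Helper73.Asch.D1d

set_option autoImplicit false

/-! # `SL` is not contained in a tensor wreath subgroup -/

namespace Cfsg.Agent.Lib.Helper73.Asch

open Cfsg Cfsg.Geo Matrix Cfsg.Agent.Lib.Helper13.Asch
open scoped Kronecker MatrixGroups

variable {ι : Type} [Fintype ι] [DecidableEq ι] {F : Type*} [Field F]

/-- pure tensors `u₀ ⊗ ⋯ ⊗ u_{t-1}` -/
def PureVec (m t : ℕ) (v : (Fin t → Fin m) → F) : Prop :=
  ∃ u : Fin t → Fin m → F, ∀ x, v x = ∏ i, u i (x i)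

theorem pure_mulVec {m t : ℕ} (A : Fin t → Matrix (Fin m) (Fin m) F)
    (g : Matrix (Fin t → Fin m) (Fin t → Fin m) F) (hg : ∀ x y, g x y = ∏ i, A i (x i) (y i))
    (u : Fin t → Fin m → F) :
    g *ᵥ (fun x => ∏ i, u i (x i)) = fun x => ∏ i, (A i *ᵥ u i) (x i) := by
  funext x
  simp only [Matrix.mulVec, dotProduct, hg]
  rw [Finset.prod_univ_sum]
  simp only [Fintype.piFinset_univ, Finset.prod_mul_distrib]

theorem perm_mulVec {m t : ℕ} (σ : Equiv.Perm (Fin t))
    (g : Matrix (Fin t → Fin m) (Fin t → Fin m) F)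
    (hg : ∀ x y, g x y = if y = x ∘ σ then 1 else 0) (v : (Fin t → Fin m) → F) :
    g *ᵥ v = fun x => v (x ∘ σ) := by
  funext x
  simp only [Matrix.mulVec, dotProduct, hg]
  simp

theorem pureVec_comp_perm {m t : ℕ} (σ : Equiv.Perm (Fin t)) {v : (Fin t → Fin m) → F}
    (hv : PureVec m t v) : PureVec m t (fun x => v (x ∘ σ)) := by
  obtain ⟨u, hu⟩ := hv
  refine ⟨fun i => u (σ.symm i), fun x => ?_⟩
  show v (x ∘ σ) = ∏ i, u (σ.symm i) (x i)
  rw [hu, ← Equiv.prod_comp σ (fun i => u (σ.symm i) (x i))]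
  simp

theorem inv_mulVec_eq {κ : Type} [Fintype κ] [DecidableEq κ] (g : GL κ F) {v w : κ → F}
    (h : (g : Matrix κ κ F) *ᵥ w = v) : ((g⁻¹ : GL κ F) : Matrix κ κ F) *ᵥ v = w := by
  rw [← h, Matrix.mulVec_mulVec, ← Units.val_mul, inv_mul_cancel, Units.val_one,
    Matrix.one_mulVec]

theorem wreath_pureVec {m t : ℕ} {g : GL (Fin t → Fin m) F} (hg : g ∈ tensorWreathStandard m t F) :
    ∀ v : (Fin t → Fin m) → F, PureVec m t v →
      PureVec m t ((g : Matrix (Fin t → Fin m) (Fin t → Fin m) F) *ᵥ v) := by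
  unfold tensorWreathStandard at hg
  induction hg using Subgroup.closure_induction'' with
  | mem x hx =>
    rintro v ⟨u, hu⟩
    obtain rfl : v = fun x => ∏ i, u i (x i) := funext hu
    rcases hx with ⟨gs, hgs⟩ | ⟨σ, hσ⟩
    · rw [pure_mulVec (fun i => (gs i : Matrix (Fin m) (Fin m) F)) _ hgs]
      exact ⟨_, fun x => rfl⟩
    · rw [perm_mulVec σ _ hσ]
      exact pureVec_comp_perm σ ⟨u, fun x => rfl⟩
  | inv_mem x hx =>
    rintro v ⟨u, hu⟩
    obtain rfl : v = fun x => ∏ i, u i (x i) := funext hu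
    rcases hx with ⟨gs, hgs⟩ | ⟨σ, hσ⟩
    · rw [inv_mulVec_eq x (w := fun y => ∏ i,
        ((((gs i)⁻¹ : GL (Fin m) F) : Matrix (Fin m) (Fin m) F) *ᵥ u i) (y i))]
      · exact ⟨_, fun x => rfl⟩
      · rw [pure_mulVec (fun i => (gs i : Matrix (Fin m) (Fin m) F)) _ hgs]
        funext y
        refine Finset.prod_congr rfl fun i _ => ?_
        rw [Matrix.mulVec_mulVec, ← Units.val_mul, mul_inv_cancel, Units.val_one,
          Matrix.one_mulVec]
    · rw [inv_mulVec_eq x (w := fun y => (fun x => ∏ i, u i (x i)) (y ∘ σ.symm))]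
      · exact pureVec_comp_perm σ.symm ⟨u, fun x => rfl⟩
      · rw [perm_mulVec σ _ hσ]
        funext y
        simp
  | one => intro v hv; simpa using hv
  | mul x y _ _ hx hy =>
    intro v hv
    rw [Units.val_mul, ← Matrix.mulVec_mulVec]
    exact hx _ (hy v hv)

/-- the determinantal relation satisfied by pure tensors -/
theorem pureVec_rel {m t : ℕ} {v : (Fin (t + 1) → Fin m) → F} (hv : PureVec m (t + 1) v)
    (a b : Fin m) (c d : Fin t → Fin m) :
    v (Fin.cons a c) * v (Fin.cons b d) = v (Fin.cons b c) * v (Fin.cons a d) := by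
  obtain ⟨u, hu⟩ := hv
  simp only [hu, Fin.prod_univ_succ, Fin.cons_zero, Fin.cons_succ]
  ring

/-- `SL` is not contained in the tensor wreath group -/
theorem sl_not_le_wreath {m t : ℕ} (hm : 2 ≤ m) (ht : 2 ≤ t) (e : ι ≃ (Fin t → Fin m))
    (P : GL ι F) : ¬ specialLinear ι F ≤ tensorWreathSubgroup m t e P := by
  intro h
  have h1 := sl_le_of_le_conj_reindex e P _ h
  obtain ⟨m, rfl⟩ : ∃ m', m = m' + 2 := ⟨m - 2, by omega⟩
  obtain ⟨t, rfl⟩ : ∃ t', t = t' + 1 + 1 := ⟨t - 2, by omega⟩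
  set x0 : Fin (t + 1 + 1) → Fin (m + 2) := Fin.cons 0 (fun _ => 0) with hx0
  set y0 : Fin (t + 1 + 1) → Fin (m + 2) := Fin.cons 1 (fun _ => 1) with hy0
  set x1 : Fin (t + 1 + 1) → Fin (m + 2) := Fin.cons 1 (fun _ => 0) with hx1
  set y1 : Fin (t + 1 + 1) → Fin (m + 2) := Fin.cons 0 (fun _ => 1) with hy1
  have h01 : (0 : Fin (m + 2)) ≠ 1 := by
    intro h; simpa using congrArg Fin.val h
  have hne : x0 ≠ y0 := fun h => h01 (by simpa [hx0, hy0] using congrFun h 0)
  have hx1x0 : x1 ≠ x0 := fun h => h01 (by simpa [hx0, hx1] using (congrFun h 0).symm)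
  have hx1y0 : x1 ≠ y0 := fun h => h01 (by simpa [hy0, hx1] using congrFun h 1)
  obtain ⟨g, hg, hgS⟩ := exists_gl_of_det_one (Matrix.transvection x0 y0 (1 : F))
    (Matrix.det_transvection_of_ne _ _ hne 1)
  have hp := wreath_pureVec (h1 hgS) (Pi.single y0 1) ⟨fun i => Pi.single (y0 i) 1, fun x => by
    by_cases hx : x = y0
    · subst hx; simp
    · rw [Pi.single_eq_of_ne hx]
      obtain ⟨i, hi⟩ := Function.ne_iff.1 hx
      exact (Finset.prod_eq_zero (Finset.mem_univ i) (by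
        show (Pi.single (y0 i) (1 : F) : Fin (m + 2) → F) (x i) = 0
        rw [Pi.single_eq_of_ne hi])).symm⟩
  rw [hg] at hp
  have hval : ∀ x, (Matrix.transvection x0 y0 (1 : F) *ᵥ Pi.single y0 1) x =
      (if x = y0 then 1 else 0) + (if x = x0 then 1 else 0) := by
    intro x
    rw [Matrix.transvection, Matrix.add_mulVec, Matrix.one_mulVec, Matrix.mulVec_single_one]
    simp [Pi.single_apply, Matrix.single_apply, Matrix.col_apply, eq_comm]
  have hrel := pureVec_rel hp 0 1 (fun _ => 0) (fun _ => 1)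
  rw [hval, hval, hval, hval] at hrel
  rw [if_neg hne, if_pos rfl, if_pos rfl, if_neg hne.symm, if_neg hx1y0, if_neg hx1x0] at hrel
  simp at hrel

/-- D1g -/
theorem sl_not_le_wreath_two {m : ℕ} (hm : 2 ≤ m) (e : ι ≃ (Fin 2 → Fin m)) (P : GL ι F) :
    ¬ specialLinear ι F ≤ tensorWreathSubgroup m 2 e P :=
  sl_not_le_wreath hm le_rfl e P

end Cfsg.Agent.Lib.Helper73.Asch
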