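import Mathlib
import Cfsg.Agent.Lib.Helper73.Asch.D1d

set_option autoImplicit false

/-! # `SL` does not normalise a nonscalar finite group of order prime to the characteristic -/

namespace Cfsg.Agent.Lib.Helper73.Asch

open Cfsg Cfsg.Geo Matrix Cfsg.Agent.Lib.Helper13.Asch
open scoped Kronecker MatrixGroups

variable {ι : Type} [Fintype ι] [DecidableEq ι] {F : Type*} [Field F]

theorem mat_ext {A B : Matrix ι ι F} (h : ∀ u, A *ᵥ u = B *ᵥ u) : A = B :=
  Matrix.toLin'.injective (LinearMap.ext fun u => by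
    rw [Matrix.toLin'_apply, Matrix.toLin'_apply]; exact h u)

/-- if `x` moves the line of `v`, some transvection `τ` has a nontrivial unipotent commutator
with `x` -/
theorem comm_unipotent {p : ℕ} [Fact p.Prime] [CharP F p] (hι : 3 ≤ Fintype.card ι) (x : GL ι F)
    (v : ι → F) (hv : LinearIndependent F ![v, (x : Matrix ι ι F) *ᵥ v]) :
    ∃ τ ∈ specialLinear ι F, (x * τ * x⁻¹ * τ⁻¹) ^ (p ^ 2) = 1 ∧ x * τ * x⁻¹ * τ⁻¹ ≠ 1 := by
  have hne : Nonempty ι := Fintype.card_pos_iff.1 (by omega)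
  set xi : Matrix ι ι F := ((x⁻¹ : GL ι F) : Matrix ι ι F) with hxi
  set xm : Matrix ι ι F := (x : Matrix ι ι F) with hxm
  have hx1 : xm * xi = 1 := by rw [hxm, hxi, ← Units.val_mul, mul_inv_cancel, Units.val_one]
  have hx2 : xi * xm = 1 := by rw [hxm, hxi, ← Units.val_mul, inv_mul_cancel, Units.val_one]
  have hlt : Submodule.span F ({v, xi *ᵥ v} : Set (ι → F)) < ⊤ := by
    classical
    rw [lt_top_iff_ne_top]
    intro htop
    have h1 : Module.finrank F (Submodule.span F ((({v, xi *ᵥ v} : Finset (ι → F)) :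
        Set (ι → F)))) ≤ 2 :=
      (finrank_span_finset_le_card _).trans Finset.card_le_two
    rw [Finset.coe_insert, Finset.coe_singleton, htop, finrank_top,
      Module.finrank_fintype_fun_eq_card] at h1
    omega
  obtain ⟨f, hf0, hf⟩ := Submodule.exists_le_ker_of_lt_top _ hlt
  have hfv : f v = 0 := hf (Submodule.subset_span (by simp))
  have hfxv : f (xi *ᵥ v) = 0 := hf (Submodule.subset_span (by simp))
  set N : Matrix ι ι F := LinearMap.toMatrix' (f.smulRight v) with hN
  have hNu : ∀ u, N *ᵥ u = f u • v := fun u => by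
    rw [hN, LinearMap.toMatrix'_mulVec]; rfl
  have hNN : N * N = 0 := mat_ext fun u => by
    rw [← Matrix.mulVec_mulVec, hNu, hNu, map_smul, hfv]; simp
  set N' : Matrix ι ι F := xm * N * xi with hN'
  have hN'N : N' * N = 0 := mat_ext fun u => by
    rw [hN', ← Matrix.mulVec_mulVec, ← Matrix.mulVec_mulVec, ← Matrix.mulVec_mulVec, hNu u,
      Matrix.mulVec_smul xi, hNu, map_smul, hfxv]
    simp
  have hN'N' : N' * N' = 0 := by
    calc N' * N' = xm * N * (xi * xm) * N * xi := by rw [hN']; noncomm_ring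
      _ = xm * (N * N) * xi := by rw [hx2]; noncomm_ring
      _ = 0 := by rw [hNN]; simp
  have hdet : (1 + N).det = 1 := by
    have h1 : 1 + N = LinearMap.toMatrix' (LinearMap.transvection f v) := by
      have : LinearMap.transvection f v = LinearMap.id + f.smulRight v := by
        ext u; simp [LinearMap.transvection.apply]
      rw [this, map_add, LinearMap.toMatrix'_id]
    rw [h1, LinearMap.det_toMatrix', LinearMap.transvection.det, hfv, add_zero]
  obtain ⟨τ, hτ, hτS⟩ := exists_gl_of_det_one (1 + N) hdet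
  have hτi : ((τ⁻¹ : GL ι F) : Matrix ι ι F) = 1 - N := by
    apply Units.inv_eq_of_mul_eq_one_right
    rw [hτ, mul_sub, mul_one, add_mul, one_mul, hNN]
    abel
  set M : Matrix ι ι F := N' - N with hM
  have hcoe : ((x * τ * x⁻¹ * τ⁻¹ : GL ι F) : Matrix ι ι F) = 1 + M := by
    rw [Units.val_mul, Units.val_mul, Units.val_mul, hτ, hτi]
    calc xm * (1 + N) * xi * (1 - N) = (xm * xi + N') * (1 - N) := by rw [hN']; noncomm_ring
      _ = 1 + N' - N - N' * N := by rw [hx1]; noncomm_ring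
      _ = 1 + M := by rw [hN'N, hM]; abel
  have hMM : M * M = -(N * N') := by
    rw [hM, sub_mul, mul_sub, mul_sub, hN'N', hN'N, hNN]
    abel
  have hM3 : M ^ 3 = 0 := by
    rw [pow_succ, pow_two, hMM, hM, mul_sub, neg_mul, neg_mul, mul_assoc, hN'N', mul_assoc, hN'N]
    simp
  refine ⟨τ, hτS, ?_, ?_⟩
  · apply Units.ext
    rw [Units.val_pow_eq_pow_val, hcoe, add_pow_char_pow_of_commute p 2 (Commute.one_left M),
      one_pow, Units.val_one]
    have h3 : 3 ≤ p ^ 2 := by
      have := (Fact.out : p.Prime).two_le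
      nlinarith
    rw [pow_eq_zero_of_le h3 hM3, add_zero]
  · intro h1
    have h2 : (1 : Matrix ι ι F) + M = 1 := by rw [← hcoe, h1, Units.val_one]
    have h3 : N' = N := by
      have : M = 0 := by simpa using h2
      exact sub_eq_zero.1 this
    have h4 : xm * N = N * xm := by
      calc xm * N = xm * N * (xi * xm) := by rw [hx2, mul_one]
        _ = N' * xm := by rw [hN']; noncomm_ring
        _ = N * xm := by rw [h3]
    obtain ⟨u, hu⟩ : ∃ u, f u ≠ 0 := by
      by_contra hcon
      push Not at hcon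
      exact hf0 (LinearMap.ext hcon)
    have h5 := congrArg (fun A => A *ᵥ u) h4
    simp only [← Matrix.mulVec_mulVec, hNu, Matrix.mulVec_smul] at h5
    have h6 := (LinearIndependent.pair_iff.1 hv) (-(f (xm *ᵥ u))) (f u) (by
      rw [h5]; simp)
    exact hu h6.2

/-- D1f -/
theorem sl_not_le_sympNormalizer [Fintype F] (hι : 3 ≤ Fintype.card ι) {r : ℕ}
    (R : Subgroup (GL ι F)) (hR : IsLinearSymplecticTypeData r R) :
    ¬ specialLinear ι F ≤ subgroupNormalizer R := by
  intro hSL
  obtain ⟨p, e, hrp, ⟨hp, hchar, -, -, -⟩, -⟩ := hR.field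
  haveI : Fact p.Prime := ⟨hp⟩
  have hscal : ∀ x ∈ R, ∃ c : F, (x : Matrix ι ι F) = c • (1 : Matrix ι ι F) := by
    intro x hx
    by_contra hns
    have hex : ∃ v : ι → F, LinearIndependent F ![v, (x : Matrix ι ι F) *ᵥ v] := by
      by_contra hcon
      push Not at hcon
      obtain ⟨a, ha⟩ := LinearMap.exists_eq_smul_id_of_forall_notLinearIndependent
        (f := Matrix.toLin' (x : Matrix ι ι F)) (fun v => by
          rw [Matrix.toLin'_apply]; exact hcon v)
      apply hns
      refine ⟨a, Matrix.toLin'.injective ?_⟩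
      rw [ha, map_smul, Matrix.toLin'_one]
      rfl
    obtain ⟨v, hv⟩ := hex
    obtain ⟨τ, hτ, hpow, hne⟩ := comm_unipotent (p := p) hι x v hv
    have hτN := hSL hτ
    have hmem : x * τ * x⁻¹ * τ⁻¹ ∈ R := by
      have h1 : τ * x⁻¹ * τ⁻¹ ∈ R := (Subgroup.mem_normalizer_iff.1 hτN x⁻¹).1 (R.inv_mem hx)
      have := R.mul_mem hx h1
      simpa [mul_assoc] using this
    obtain ⟨k, hk⟩ := hR.symplecticType.pGroup ⟨_, hmem⟩
    have hk' : (x * τ * x⁻¹ * τ⁻¹) ^ r ^ k = 1 := by
      simpa using congrArg Subtype.val hk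
    have hcop : Nat.Coprime (p ^ 2) (r ^ k) :=
      Nat.Coprime.pow _ _ ((Nat.coprime_primes hp hR.symplecticType.prime).2 (Ne.symm hrp))
    have hord : orderOf (x * τ * x⁻¹ * τ⁻¹) = 1 :=
      Nat.eq_one_of_dvd_coprimes hcop (orderOf_dvd_of_pow_eq_one hpow)
        (orderOf_dvd_of_pow_eq_one hk')
    exact hne (orderOf_eq_one_iff.1 hord)
  obtain ⟨i, j, hij⟩ : ∃ i j : ι, i ≠ j := Fintype.one_lt_card_iff.1 (by omega)
  obtain ⟨c, hc⟩ := hR.absIrred.2 (Matrix.single i j 1) (by
    rintro _ ⟨x, hx, rfl⟩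
    obtain ⟨c, hc⟩ := hscal x hx
    show Matrix.single i j 1 * (x : Matrix ι ι F) = (x : Matrix ι ι F) * Matrix.single i j 1
    rw [hc]; simp)
  have := congrFun (congrFun hc i) j
  simp [hij] at this

end Cfsg.Agent.Lib.Helper73.Asch
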